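import Cfsg.Agent.StdW.Basic

/-!
# Standard subgroups with one class of involutions: the calculus of the involutions `v a`
-/

set_option autoImplicit false

namespace Cfsg.Lib.StdW

open Subgroup Cfsg.Lib.Gold Cfsg.Lib.Trans Cfsg.Lib.StdSz
open scoped commutatorElement

variable {G Ω : Type*} [Group G] [Group Ω] [Finite G] [Finite Ω] {Γ Γ0 T : Subgroup Ω} {z : Ω}
  {A O B : Subgroup G} {ρ ρ' : G → Ω} {t : G}

/-- the family of involutions `v a` -/
structure Fam (A O : Subgroup G) (t : G) (v : G → G) : Prop where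
  one : v 1 = 1
  sq : ∀ a ∈ A, a * a = 1 → v a * v a = 1
  vt : ∀ a ∈ A, a * a = 1 → v a * t * v a = t * a
  cO : ∀ a ∈ A, a * a = 1 → v a ∈ Cs O
  cA : ∀ a ∈ A, a * a = 1 → v a ∈ Cs (A ⊓ C1 a)
  eqv : ∀ a ∈ A, a * a = 1 → ∀ g ∈ A, v (g * a * g⁻¹) = g * v a * g⁻¹

theorem exists_fam (b : Base Γ Γ0 T z) (h : Mdl Γ Γ0 A ρ) {ζ v : G} (hζ : ζ ∈ A) (h2 : ζ * ζ = 1)
    (e : ρ ζ = z) (h1 : v * v = 1) (h3 : v * t * v = t * ζ) (h4 : v ∈ Cs O) (h5 : v ∈ Cs (A ⊓ C1 ζ))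
    (ht : t ∈ Cs A) (hO : O ≤ Cs A) : ∃ v, Fam A O t v := by
  classical
  have z1 : ζ ≠ 1 := fun c => b.z1 (by rw [← e, c, h.one])
  have ind : ∀ g ∈ A, ∀ k ∈ A, g * ζ * g⁻¹ = k * ζ * k⁻¹ → g * v * g⁻¹ = k * v * k⁻¹ :=
    fun g hg k hk c => by
      have := (mem_Cs.1 h5 (k⁻¹ * g) ⟨A.mul_mem (A.inv_mem hk) hg, mem_C1.2 (by
        calc k⁻¹ * g * ζ = k⁻¹ * (g * ζ * g⁻¹) * g := by group
          _ = _ := by rw [c]; group)⟩).eq
      calc g * v * g⁻¹ = k * (k⁻¹ * g * v) * g⁻¹ := by group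
        _ = _ := by rw [← this]; group
  obtain ⟨w, w1, hw⟩ : ∃ w : G → G, w 1 = 1 ∧ ∀ g ∈ A, w (g * ζ * g⁻¹) = g * v * g⁻¹ := by
    refine ⟨fun a => if c : ∃ g ∈ A, g * ζ * g⁻¹ = a then c.choose * v * c.choose⁻¹ else 1,
      dif_neg fun ⟨g, _, c⟩ => z1 (conj_eq_one_iff.1 c), fun g hg => ?_⟩
    have c : ∃ k ∈ A, k * ζ * k⁻¹ = g * ζ * g⁻¹ := ⟨g, hg, rfl⟩
    exact (dif_pos c).trans (ind _ c.choose_spec.1 _ hg c.choose_spec.2)
  have cs : ∀ a ∈ A, a * a = 1 → a = 1 ∨ ∃ g ∈ A, g * ζ * g⁻¹ = a := fun a ha a2 =>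
    or_iff_not_imp_left.2 fun a1 => h.cls b hζ ha h2 a2 z1 a1
  refine ⟨w, w1, fun a ha a2 => ?_, fun a ha a2 => ?_, fun a ha a2 => ?_, fun a ha a2 => ?_,
    fun a ha a2 k hk => ?_⟩ <;> rcases cs a ha a2 with rfl | ⟨g, hg, rfl⟩
  · rw [w1, mul_one]
  · rw [hw g hg, conj_mul, h1]; simp
  · rw [w1]; simp
  · have c := (mem_Cs.1 ht g hg).eq
    have c' : g * t * g⁻¹ = t := by rw [← c, mul_inv_cancel_right]
    rw [hw g hg]
    calc g * v * g⁻¹ * t * (g * v * g⁻¹) = g * v * g⁻¹ * (g * t * g⁻¹) * (g * v * g⁻¹) := by rw [c']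
      _ = g * (v * t * v) * g⁻¹ := by group
      _ = _ := by rw [h3, ← conj_mul, c']
  · rw [w1]; exact one_mem _
  · rw [hw g hg]
    have : g ∈ Cs O := mem_Cs.2 fun o ho => (mem_Cs.1 (hO ho) g hg).symm
    exact mul_mem (mul_mem this h4) (inv_mem this)
  · rw [w1]; exact one_mem _
  · rw [hw g hg]
    refine mem_Cs.2 fun x hx => ?_
    have := (mem_Cs.1 h5 (g⁻¹ * x * g) ⟨A.mul_mem (A.mul_mem (A.inv_mem hg) hx.1) hg, mem_C1.2 (by
      calc g⁻¹ * x * g * ζ = g⁻¹ * (x * (g * ζ * g⁻¹)) * g := by group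
        _ = _ := by rw [(mem_C1.1 hx.2).eq]; group)⟩).eq
    calc g * v * g⁻¹ * x = g * (v * (g⁻¹ * x * g)) * g⁻¹ := by group
      _ = _ := by rw [this]; group
  · simp [w1]
  · rw [show k * (g * ζ * g⁻¹) * k⁻¹ = k * g * ζ * (k * g)⁻¹ by group, hw _ (mul_mem hk hg), hw g hg]
    group

namespace DbA

/-- elements of `A` of order at most two -/
def Iv (A : Subgroup G) (a : G) : Prop := a ∈ A ∧ a * a = 1

omit [Finite G] in
theorem p1 {a : G} (h : a * a = 1) : a ^ 2 ^ 1 = 1 := by rw [pow_one, pow_two, h]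

omit [Finite G] in
theorem iv {a : G} (h : a * a = 1) (r : G) : a * (a * r) = r := by rw [← mul_assoc, h, one_mul]

omit [Finite G] in
theorem lf {a b c : G} (h : a * b = c) (r : G) : a * (b * r) = c * r := by rw [← mul_assoc, h]

omit [Finite G] in
theorem Iv.mul {a b : G} (ha : Iv A a) (hb : Iv A b) (c : Commute a b) : Iv A (a * b) :=
  ⟨mul_mem ha.1 hb.1, by rw [mul_assoc, c.symm.left_comm, iv ha.2, hb.2]⟩

omit [Finite G] in
theorem Iv.conj {a g : G} (ha : Iv A a) (hg : g ∈ A) : Iv A (g * a * g⁻¹) :=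
  ⟨mul_mem (mul_mem hg ha.1) (inv_mem hg), by rw [conj_mul, ha.2]; simp⟩

omit [Finite G] in
theorem Iv.inv {a : G} (ha : Iv A a) : a⁻¹ = a := inv_eq_of_mul_eq_one_right ha.2

omit [Finite G] in
theorem closure_four {a b x : G} (ha : a * a = 1) (hb : b * b = 1) (c : Commute a b)
    (hx : x ∈ closure ({a, b} : Set G)) : x = 1 ∨ x = a ∨ x = b ∨ x = a * b := by
  have c' := c.symm.left_comm
  induction hx using closure_induction with
  | mem x hx => rcases hx with rfl | rfl <;> simp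
  | one => simp
  | mul x y _ _ hx hy =>
    rcases hx with rfl | rfl | rfl | rfl <;> rcases hy with e | e | e | e <;> rw [e] <;>
      simp [mul_assoc, c', iv ha, iv hb, ha, hb, c.symm.eq]
  | inv x _ hx =>
    rcases hx with rfl | rfl | rfl | rfl <;>
      simp [inv_eq_of_mul_eq_one_right ha, inv_eq_of_mul_eq_one_right hb, c.symm.eq]

theorem lift2 (h : Mdl Γ Γ0 A ρ) {a b a' b' : G} (ha : Iv A a) (hb : Iv A b) (ha' : Iv A a')
    (hb' : Iv A b') (c : Cj2 Γ0 (ρ a) (ρ b) (ρ a') (ρ b')) :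
    ∃ g ∈ A, g * a * g⁻¹ = a' ∧ g * b * g⁻¹ = b' := by
  obtain ⟨γ, hγ, e1, e2⟩ := c
  obtain ⟨g, hg, rfl⟩ := h.surj γ hγ
  exact ⟨g, hg, h.conj_eq (le_normalizer hg) ha.1 ha'.1 (p1 ha.2) (p1 ha'.2) e1,
    h.conj_eq (le_normalizer hg) hb.1 hb'.1 (p1 hb.2) (p1 hb'.2) e2⟩

theorem odd_one (s : St A O t) {o : G} (ho : o ∈ O) (e : o * o * (o * o) = 1) : o = 1 := by
  have h1 : orderOf o ∣ 2 ^ 2 := orderOf_dvd_of_pow_eq_one (by
    rw [← e, ← pow_two, ← pow_two, ← pow_mul]; rfl)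
  exact orderOf_eq_one_iff.1 (Nat.Coprime.eq_one_of_dvd
    ((Nat.coprime_two_right.2 (odd_orderOf s.Oodd ho)).pow_right 2) h1)

omit [Finite G] in
theorem dec' (h : Mdl Γ Γ0 A ρ) (s : St A O t) {c e : G} (hc : Commute c t) (he : e ∈ A)
    (r : ρ c = ρ e) : ∃ o ∈ O, c = e * o ∨ c = e * (t * o) := by
  have cN := s.cN (mem_C1.2 hc)
  have eN : e⁻¹ ∈ Ns A := le_normalizer (inv_mem he)
  have k := (h.ker _ (mul_mem eN cN)).1 (by rw [h.mul _ eN _ cN, h.inv (le_normalizer he), r]; simp)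
  rcases s.dec _ ⟨k, mem_C1.2 (((mem_Cs.1 s.tA e he).symm.inv_left).mul_left hc)⟩ with
    c1 | ⟨o, ho, c1⟩
  · exact ⟨_, c1, .inl (by simp)⟩
  · exact ⟨o, ho, .inr (by rw [← c1]; simp)⟩

omit [Finite G] in
theorem t_not (s : St A O t) : t ∉ A := fun c => s.nc t c (IsConj.refl t)

omit [Finite G] in
theorem ta (s : St A O t) {a : G} (ha : a ∈ A) : Commute a t := (mem_Cs.1 s.tA a ha).symm

omit [Finite G] in
theorem oa (s : St A O t) {a o : G} (ho : o ∈ O) (ha : a ∈ A) : Commute o a :=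
  mem_Cs.1 (s.Ole ho).1 a ha

omit [Finite G] in
theorem ot (s : St A O t) {o : G} (ho : o ∈ O) : Commute o t := mem_C1.1 (s.Ole ho).2

variable {v : G → G} (F : Fam A O t v)
include F

theorem v2 {a : G} (ha : Iv A a) : v a * v a = 1 := F.sq a ha.1 ha.2

theorem vi {a : G} (ha : Iv A a) : (v a)⁻¹ = v a := inv_eq_of_mul_eq_one_right (v2 F ha)

theorem vc {a x : G} (ha : Iv A a) (hx : x ∈ A) (c : Commute x a) : Commute (v a) x :=
  mem_Cs.1 (F.cA a ha.1 ha.2) x ⟨hx, mem_C1.2 c⟩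

theorem vo {a o : G} (ha : Iv A a) (ho : o ∈ O) : Commute (v a) o := mem_Cs.1 (F.cO a ha.1 ha.2) o ho

theorem vtl {a : G} (ha : Iv A a) (r : G) : v a * (t * r) = t * (a * (v a * r)) := by
  calc v a * (t * r) = v a * t * v a * (v a * r) := by rw [mul_assoc _ (v a), iv (v2 F ha), mul_assoc]
    _ = _ := by rw [F.vt a ha.1 ha.2, mul_assoc]

theorem one_of {a : G} (ha : Iv A a) (c : Commute (v a) t) : a = 1 := by
  have := F.vt a ha.1 ha.2
  rw [c.eq, mul_assoc, v2 F ha] at this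
  exact (mul_left_cancel this).symm

theorem eq' {a g : G} (ha : Iv A a) (hg : g ∈ A) : v (g * a * g⁻¹) = g * v a * g⁻¹ :=
  F.eqv a ha.1 ha.2 g hg

theorem mul_cj {a b g : G} (ha : Iv A a) (hb : Iv A b) (c : Commute a b) (hg : g ∈ A)
    (e : v a * v b = v (a * b)) :
    v (g * a * g⁻¹) * v (g * b * g⁻¹) = v (g * a * g⁻¹ * (g * b * g⁻¹)) := by
  rw [conj_mul, eq' F ha hg, eq' F hb hg, eq' F (ha.mul hb c) hg, conj_mul, e]

theorem alt_cj (s : St A O t) {a b g : G} (ha : Iv A a) (hb : Iv A b) (c : Commute a b) (hg : g ∈ A)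
    (e : v a * v b = t * b * v (a * b)) :
    v (g * a * g⁻¹) * v (g * b * g⁻¹) = t * (g * b * g⁻¹) * v (g * a * g⁻¹ * (g * b * g⁻¹)) := by
  rw [conj_mul, eq' F ha hg, eq' F hb hg, eq' F (ha.mul hb c) hg, conj_mul, e]
  simp only [mul_assoc, (ta s hg).left_comm, inv_mul_cancel_left]

theorem lemM (h : Mdl Γ Γ0 A ρ) (s : St A O t) {a b : G} (ha : Iv A a) (hb : Iv A b)
    (c : Commute a b) (a1 : a ≠ 1) (b1 : b ≠ 1) (g : Good Γ Γ0 (ρ a) (ρ b)) :
    v a * v b = v (a * b) ∨ v a * v b = t * b * v (a * b) := by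
  have hab := ha.mul hb c
  have aN : a ∈ Ns A := le_normalizer ha.1
  have bN : b ∈ Ns A := le_normalizer hb.1
  have xa := vc F ha ha.1 (Commute.refl a)
  have xb := vc F ha hb.1 c.symm
  have ya := vc F hb ha.1 c
  have yb := vc F hb hb.1 (Commute.refl b)
  have ct : Commute (v a * v b * v (a * b)) t := (mul_left_inj 1).1 (by
    simp only [mul_assoc, vtl F ha, vtl F hb, vtl F hab, xa.left_comm, xb.left_comm, ya.left_comm,
      yb.left_comm, c.symm.left_comm, iv ha.2, iv hb.2])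
  have cN := s.cN (mem_C1.2 ct)
  have r := g.1 ⟨h.memΓ _ cN, mem_Cs.2 fun γ hγ => by
    obtain ⟨x, hx, rfl⟩ := h.surj γ hγ.1.1
    have c1 := h.comm_of (le_normalizer hx) ha.1 (p1 ha.2) (mem_C1.1 hγ.1.2)
    have c2 := h.comm_of (le_normalizer hx) hb.1 (p1 hb.2) (mem_C1.1 hγ.2)
    exact h.commute cN (le_normalizer hx)
      (((vc F ha hx c1).mul_left (vc F hb hx c2)).mul_left (vc F hab hx (c1.mul_right c2)))⟩
  obtain ⟨e, he, r'⟩ : ∃ e, (e = 1 ∨ e = a ∨ e = b ∨ e = a * b) ∧ ρ (v a * v b * v (a * b)) = ρ e := by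
    rcases closure_four (by rw [← h.mul a aN a aN, ha.2, h.one]) (by rw [← h.mul b bN b bN, hb.2, h.one])
      (h.commute aN bN c) r with e | e | e | e
    exacts [⟨1, by simp, e.trans h.one.symm⟩, ⟨a, by simp, e⟩, ⟨b, by simp, e⟩,
      ⟨a * b, by simp, e.trans (h.mul a aN b bN).symm⟩]
  have eI : Iv A e := by
    rcases he with rfl | rfl | rfl | rfl
    exacts [⟨one_mem _, mul_one _⟩, ha, hb, hab]
  obtain ⟨g1, hg1, p1, q1⟩ := lift2 h ha hb hab hb (by rw [h.mul a aN b bN]; exact g.2.1)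
  obtain ⟨g2, hg2, p2, q2⟩ := lift2 h ha hb hb hab (by rw [h.mul a aN b bN]; exact g.2.2)
  have r1 : g1 * (a * b) * g1⁻¹ = a := by rw [← conj_mul, p1, q1, mul_assoc, hb.2, mul_one]
  have r2 : g2 * (a * b) * g2⁻¹ = a := by rw [← conj_mul, p2, q2, c.symm.left_comm, hb.2, mul_one]
  have s1 : g1 * (v a * v b * v (a * b)) * g1⁻¹ = (v a * v b * v (a * b))⁻¹ := by
    rw [← conj_mul, ← conj_mul, ← eq' F ha hg1, ← eq' F hb hg1, ← eq' F hab hg1, p1, q1, r1,
      mul_inv_rev, mul_inv_rev, vi F ha, vi F hb, vi F hab, mul_assoc]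
  have s2 : g2 * (v a * v b * v (a * b)) * g2⁻¹ = v a * (v a * v b * v (a * b)) * v a := by
    rw [← conj_mul, ← conj_mul, ← eq' F ha hg2, ← eq' F hb hg2, ← eq' F hab hg2, p2, q2, r2]
    simp only [mul_assoc, iv (v2 F ha)]
  obtain ⟨o, ho, hc0⟩ := dec' h s ct eI.1 r'
  obtain ⟨τ, hτ, hc⟩ : ∃ τ, (τ = 1 ∨ τ = t) ∧ v a * v b * v (a * b) = e * (τ * o) :=
    hc0.elim (fun c => ⟨1, .inl rfl, by rwa [one_mul]⟩) fun c => ⟨t, .inr rfl, c⟩
  clear hc0
  have τA : ∀ x ∈ A, Commute x τ := fun x hx => by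
    rcases hτ with rfl | rfl
    exacts [Commute.one_right x, ta s hx]
  have τ2 : τ * τ = 1 := by
    rcases hτ with rfl | rfl
    exacts [mul_one _, s.tt]
  have τo : Commute o τ := by
    rcases hτ with rfl | rfl
    exacts [Commute.one_right o, ot s ho]
  have cj : ∀ k ∈ A, k * (e * (τ * o)) * k⁻¹ = k * e * k⁻¹ * (τ * o) := fun k hk => by
    have := ((τA k hk).mul_right (oa s ho hk).symm).inv_left.eq
    rw [mul_assoc (k * e), this]; group
  rw [hc, cj g1 hg1] at s1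
  have ce : Commute (g1 * e * g1⁻¹) e := by
    rcases he with rfl | rfl | rfl | rfl
    · exact Commute.one_right _
    · rw [p1]; exact (Commute.refl _).mul_left c.symm
    · rw [q1]
    · rw [r1]; exact (Commute.refl _).mul_right c
  have s3 : g1 * e * g1⁻¹ * e * (o * o) = 1 := by
    have : g1 * e * g1⁻¹ * (τ * o) * (e * (τ * o)) = 1 := by rw [s1]; simp
    generalize g1 * e * g1⁻¹ = e1 at this
    simpa only [mul_assoc, (oa s ho eI.1).left_comm, τo.left_comm, (τA e eI.1).symm.left_comm,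
      iv τ2] using this
  have o1 : o = 1 := odd_one s ho (by
    rw [← inv_eq_of_mul_eq_one_right s3, ← mul_inv_rev, ((eI.conj hg1).mul eI ce).2, inv_one])
  subst o1
  rw [mul_one, mul_one] at s3
  have s4 : e = 1 ∨ e = b := by
    rcases he with rfl | rfl | rfl | rfl
    · exact .inl rfl
    · rw [p1, mul_assoc, c.symm.eq, iv ha.2] at s3; exact absurd s3 b1
    · exact .inr rfl
    · rw [r1, iv ha.2] at s3; exact absurd s3 b1
  rw [hc, cj g2 hg2] at s2
  rw [mul_one] at hc s2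
  have fin : ∀ w, v a * v b * v (a * b) = w → v a * v b = w * v (a * b) := fun w e => by
    rw [← e, mul_assoc, v2 F hab, mul_one]
  rcases s4 with s4 | s4 <;> rcases hτ with hτ | hτ <;> rw [s4, hτ] at s2 hc
  · left; simpa using fin _ hc
  · exfalso
    simp only [mul_one, one_mul, mul_inv_cancel, mul_assoc, vtl F ha, v2 F ha] at s2
    exact a1 (mul_eq_left.1 s2.symm)
  · exfalso
    rw [q2, mul_one, mul_one, xb.eq, mul_assoc b, v2 F ha, mul_one] at s2
    exact a1 (mul_eq_right.1 s2)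
  · right; rw [fin _ hc, (ta s hb.1).eq]

/-- the lifted configuration -/
structure Lf (Γ Γ0 V : Subgroup Ω) (A : Subgroup G) (ρ : G → Ω) (U : Subgroup G) : Prop where
  le : U ≤ A
  e16 : E16 U
  mem : ∀ a, a ∈ U ↔ a ∈ A ∧ ρ a ∈ V ∧ a * a = 1
  onto : ∀ γ ∈ V, ∃ a ∈ U, ρ a = γ
  nrm : ∀ x ∈ Ns A, ρ x ∈ Ns V → x ∈ Ns U

variable {V : Subgroup Ω} {a0 a1 b0 b1 c θ : Ω} {I : Set Ω} {U : Subgroup G}

omit F [Finite G] [Finite Ω] in
theorem Lf.iv (L : Lf Γ Γ0 V A ρ U) {a : G} (ha : a ∈ U) : Iv A a := ⟨L.le ha, L.e16.2 a ha⟩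

omit F [Finite G] [Finite Ω] in
theorem Lf.comm (L : Lf Γ Γ0 V A ρ U) {a b : G} (ha : a ∈ U) (hb : b ∈ U) : Commute a b := by
  rw [Commute, SemiconjBy, ← (L.iv (mul_mem ha hb)).inv, mul_inv_rev, (L.iv ha).inv, (L.iv hb).inv]

omit F in
theorem inj (h : Mdl Γ Γ0 A ρ) {a b : G} (ha : Iv A a) (hb : Iv A b) (e : ρ a = ρ b) : a = b :=
  h.eq_of_two ha.1 hb.1 (p1 ha.2) (p1 hb.2) e

omit F in
theorem inj1 (h : Mdl Γ Γ0 A ρ) {a : G} (ha : Iv A a) (e : ρ a = 1) : a = 1 :=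
  inj h ha ⟨one_mem _, mul_one _⟩ (e.trans h.one.symm)

variable (d : Db Γ Γ0 V z a0 a1 b0 b1 c θ I) (h : Mdl Γ Γ0 A ρ) (s : St A O t)
  (L : Lf Γ Γ0 V A ρ U)
include d h s L

theorem mulU {a b : G} (ha : a ∈ U) (hb : b ∈ U) : v a * v b = v (a * b) := by
  by_cases a1 : a = 1
  · rw [a1, F.one, one_mul, one_mul]
  by_cases b1 : b = 1
  · rw [b1, F.one, mul_one, mul_one]
  by_cases ab : a = b
  · rw [← ab, v2 F (L.iv ha), (L.iv ha).2, F.one]
  obtain ⟨x, hx, ex⟩ := L.onto z d.zV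
  obtain ⟨y, hy, ey⟩ := L.onto a0 d.a0V
  have cj : ∀ a ∈ U, ∀ b ∈ U, a ≠ 1 → b ≠ 1 → a ≠ b → ∃ g ∈ A, g * x * g⁻¹ = a ∧ g * y * g⁻¹ = b :=
    fun a ha b hb a1 b1 ab => lift2 h (L.iv hx) (L.iv hy) (L.iv ha) (L.iv hb) (by
      rw [ex, ey]
      exact d.two _ ((L.mem a).1 ha).2.1 _ ((L.mem b).1 hb).2.1 (fun e => a1 (inj1 h (L.iv ha) e))
        (fun e => b1 (inj1 h (L.iv hb) e)) fun e => ab (inj h (L.iv ha) (L.iv hb) e))
  obtain ⟨g, hg, e1, e2⟩ := cj a ha b hb a1 b1 ab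
  rcases lemM F h s (L.iv hx) (L.iv hy) (L.comm hx hy) (fun e => a1 (by rw [← e1, e]; simp))
    (fun e => b1 (by rw [← e2, e]; simp)) (by rw [ex, ey]; exact d.good0) with m | m
  · rw [← e1, ← e2]; exact mul_cj F (L.iv hx) (L.iv hy) (L.comm hx hy) hg m
  exfalso
  have alt : ∀ a ∈ U, ∀ b ∈ U, a ≠ 1 → b ≠ 1 → a ≠ b → v a * v b = t * b * v (a * b) :=
    fun a ha b hb a1 b1 ab => by
      obtain ⟨g, hg, e1, e2⟩ := cj a ha b hb a1 b1 ab
      rw [← e1, ← e2]; exact alt_cj F s (L.iv hx) (L.iv hy) (L.comm hx hy) hg m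
  classical
  obtain ⟨⟨e, he⟩, n⟩ := exists_not_mem_finset (F := U)
    {1, ⟨a, ha⟩, ⟨b, hb⟩, ⟨a * b, mul_mem ha hb⟩} (lt_of_le_of_lt Finset.card_le_four (by
      rw [L.e16.1]; norm_num))
  simp only [Finset.mem_insert, Finset.mem_singleton, not_or, Subtype.ext_iff, coe_one] at n
  obtain ⟨n1, n2, n3, n4⟩ := n
  have a2 := (L.iv ha).2
  have b2 := (L.iv hb).2
  have e2 := (L.iv he).2
  have k1 := alt a ha b hb a1 b1 ab
  have k2 := alt _ (mul_mem ha hb) e he (fun k => ab (by rw [← mul_one a, ← k, iv a2])) n1 (Ne.symm n4)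
  have k3 := alt b hb e he b1 n1 (Ne.symm n3)
  have k4 := alt a ha _ (mul_mem hb he) a1 (fun k => n3 (by rw [← mul_one b, ← k, iv b2]))
    fun k => n4 (by rw [k, mul_assoc, (L.comm he hb).eq, iv b2])
  have k5 : v a * v b * v e = v a * (v b * v e) := mul_assoc _ _ _
  rw [k1, mul_assoc, k2, k3, mul_assoc t e (v (b * e)), vtl F (L.iv ha),
    (vc F (L.iv ha) (L.le he) (L.comm he ha)).left_comm, k4, ← mul_assoc a b e] at k5
  simp only [mul_assoc, (ta s (L.le ha)).left_comm, (ta s (L.le hb)).left_comm,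
    (ta s (L.le he)).left_comm, iv s.tt, (L.comm he hb).left_comm, iv e2,
    (L.comm ha hb).left_comm, mul_right_inj, mul_left_inj] at k5
  exact n2 k5

omit F d h s L [Finite G] [Finite Ω] in
theorem ncomm {x : G} (hx : x ∈ U) {b : G} (hb : b ∈ Ns U) : ⁅x, b⁆ ∈ U := by
  rw [commutatorElement_def, mul_assoc, mul_assoc, ← mul_assoc b]
  exact mul_mem hx (mem_normalizer_conj hb (inv_mem hx))

omit F d h s [Finite G] [Finite Ω] in
theorem comm_eq {a b : G} (ha : a ∈ U) (hb : Iv A b) : ⁅a, b⁆ = a * (b * (a * b)) := by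
  rw [commutatorElement_def, (L.iv ha).inv, hb.inv]; simp only [mul_assoc]

omit F d h s [Finite G] [Finite Ω] in
theorem comm_b {a b : G} (ha : a ∈ U) (hb : Iv A b) (bN : b ∈ Ns U) : Commute ⁅a, b⁆ b := by
  have := (L.iv (ncomm ha bN)).inv
  rw [commutatorElement_inv] at this
  rw [Commute, SemiconjBy]
  nth_rewrite 2 [← this]
  rw [comm_eq L ha hb, commutatorElement_def, (L.iv ha).inv, hb.inv]
  simp only [mul_assoc, iv hb.2, hb.2, mul_one]

omit d h s in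
theorem vU {x y : G} (hx : x ∈ U) (hy : y ∈ U) : Commute (v x) y :=
  vc F (L.iv hx) (L.le hy) (L.comm hy hx)

theorem vv {x y : G} (hx : x ∈ U) (hy : y ∈ U) : Commute (v x) (v y) := by
  rw [Commute, SemiconjBy, mulU F d h s L hx hy, mulU F d h s L hy hx, (L.comm hx hy).eq]

omit d h s in
theorem uU {x y : G} (hx : x ∈ U) (hy : y ∈ U) : Commute (x * v x) y :=
  (L.comm hx hy).mul_left (vU F L hx hy)

theorem uv {x y : G} (hx : x ∈ U) (hy : y ∈ U) : Commute (x * v x) (v y) :=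
  (vU F L hy hx).symm.mul_left (vv F d h s L hx hy)

omit d h s in
theorem u2 {x : G} (hx : x ∈ U) : x * v x * (x * v x) = 1 := by
  rw [mul_assoc, (vU F L hx hx).left_comm, iv (L.iv hx).2, v2 F (L.iv hx)]

theorem umul {x y : G} (hx : x ∈ U) (hy : y ∈ U) : x * y * v (x * y) = x * v x * (y * v y) := by
  rw [← mulU F d h s L hx hy]
  simp only [mul_assoc, (vU F L hx hy).left_comm]

omit d h s in
/-- formula (1) -/
theorem vb_conj {b : G} (hb : Iv A b) (bN : b ∈ Ns U)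
    (m : ∀ e ∈ U, Commute e b → v e * v b = v (e * b)) {a : G} (ha : a ∈ U) (r : G) :
    v b * (a * r) = a * (v ⁅a, b⁆ * (v b * r)) := by
  have aI := L.iv ha
  have e1 := eq' F hb aI.1
  rw [aI.inv, show a * b * a = ⁅a, b⁆ * b by
    rw [comm_eq L ha hb]; simp only [mul_assoc, hb.2, mul_one],
    ← m _ (ncomm ha bN) (comm_b L ha hb bN)] at e1
  rw [← mul_assoc (v ⁅a, b⁆), e1]
  simp only [mul_assoc, iv aI.2]

omit d h s L in
theorem vb_comm {b e : G} (hb : Iv A b) (he : Iv A e) (c : Commute e b)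
    (m : v e * v b = v (e * b)) : Commute (v b) (v e) := by
  rw [Commute, SemiconjBy, m, ← vi F (he.mul hb c), ← m, mul_inv_rev, vi F hb, vi F he]

theorem beta_mem {b : G} (hb : Iv A b) (bN : b ∈ Ns U)
    (m : ∀ e ∈ U, Commute e b → v e * v b = v (e * b)) {a : G} (ha : a ∈ U) :
    v b * (a * v a) * v b * (a * v a) ∈ U ∧ Commute (v b * (a * v a) * v b * (a * v a)) b := by
  by_cases a1 : a = 1
  · rw [a1, F.one, mul_one, mul_one, mul_one, v2 F hb]
    exact ⟨one_mem _, Commute.one_left _⟩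
  have aI := L.iv ha
  have cU := ncomm ha bN
  have cI := L.iv cU
  have cb := comm_b L ha hb bN
  have ba : ∀ r, b * (a * r) = a * (⁅a, b⁆ * (b * r)) := fun r => by
    rw [comm_eq L ha hb]; simp only [mul_assoc, iv aI.2, iv hb.2]
  have ub : ∀ r, a * v a * (b * r) = ⁅a, b⁆ * (v ⁅a, b⁆ * (b * (a * v a * r))) := fun r => by
    have e1 := eq' F aI hb.1
    have e2 : b * a * b = a * ⁅a, b⁆ := by rw [comm_eq L ha hb, iv aI.2, mul_assoc]
    rw [hb.inv, e2] at e1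
    have e3 : b * (a * v a) * b = a * v a * (⁅a, b⁆ * v ⁅a, b⁆) := by
      rw [← umul F d h s L ha cU, e1, ← e2]; simp only [mul_assoc, iv hb.2]
    calc a * v a * (b * r) = a * v a * (b * (a * v a) * b) * (b * (a * v a * r)) := by
          simp only [mul_assoc _ _ (b * _), mul_assoc b, iv hb.2, iv (u2 F L ha), mul_assoc _ b]
      _ = _ := by rw [e3, iv (u2 F L ha), mul_assoc]
  have ut : ∀ r, a * v a * (t * r) = t * (a * (a * v a * r)) := fun r => by
    rw [mul_assoc, vtl F aI, (ta s aI.1).left_comm, mul_assoc a]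
  have uu := u2 F L ha
  have uU' := fun x hx => uU F L ha (y := x) hx
  have uv' := fun x hx => uv F d h s L ha (y := x) hx
  have uo : ∀ o ∈ O, Commute (a * v a) o := fun o ho => (oa s ho aI.1).symm.mul_left (vo F aI ho)
  generalize a * v a = u at ub ut uu uU' uv' uo
  have ct : Commute (v b * u * v b * u) t := (mul_left_inj 1).1 (by
    simp only [mul_assoc, ut, vtl F hb, vb_conj F L hb bN m ha, ub, ba, (uU' a ha).left_comm,
      (uU' _ cU).left_comm, (uv' _ cU).left_comm, (vc F hb cI.1 cb).left_comm,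
      (vc F hb hb.1 (Commute.refl b)).left_comm, (vb_comm F hb cI cb (m _ cU cb)).left_comm,
      (vU F L cU ha).left_comm, (vU F L cU cU).left_comm, (vc F cI hb.1 cb.symm).left_comm,
      cb.symm.left_comm, (L.comm cU ha).left_comm, iv aI.2, iv hb.2, iv cI.2, iv (v2 F cI)])
  have cx : ∀ x ∈ U, Commute (v b * u * v b * u) x := fun x hx => (mul_left_inj 1).1 (by
    have c1 := ncomm hx bN
    have c2 := comm_b L hx hb bN
    simp only [mul_assoc, vb_conj F L hb bN m hx, (uU' x hx).left_comm, (uv' _ c1).left_comm,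
      (vb_comm F hb (L.iv c1) c2 (m _ c1 c2)).left_comm, iv (v2 F (L.iv c1))])
  have cN := s.cN (mem_C1.2 ct)
  obtain ⟨e, he, r⟩ := L.onto _ (d.selfc ⟨h.memΓ _ cN, mem_Cs.2 fun γ hγ => by
    obtain ⟨x, hx, rfl⟩ := L.onto γ hγ
    exact h.commute cN (le_normalizer (L.le hx)) (cx x hx)⟩)
  have eI := L.iv he
  have k : u * (v b * u * v b * u) * u * (v b * u * v b * u) = 1 := by
    simp only [mul_assoc, iv uu, iv (v2 F hb), uu, one_mul]
  have be : v b * u * v b * u = e := by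
    obtain ⟨o, ho, hc | hc⟩ := dec' h s ct eI.1 r.symm <;> rw [hc] at k
    · simp only [mul_assoc, (uU' e he).left_comm, (uo o ho).left_comm, iv uu,
        (oa s ho eI.1).left_comm, iv eI.2] at k
      rw [hc, odd_one s ho (by rw [k, mul_one]), mul_one]
    · simp only [mul_assoc, (uU' e he).left_comm, (uo o ho).left_comm, iv uu, ut,
        (oa s ho eI.1).left_comm, (ot s ho).left_comm, (ta s aI.1).left_comm,
        (L.comm ha he).left_comm, (ta s eI.1).left_comm, iv eI.2, iv s.tt, (uU' a ha).left_comm,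
        (oa s ho aI.1).left_comm, iv aI.2] at k
      have := odd_one s ho (by
        rw [← inv_eq_of_mul_eq_one_right k, aI.inv, aI.2])
      rw [this, mul_one, mul_one] at k
      exact absurd k a1
  have k2 : v b * (e * (v b * e)) = 1 := by
    rw [← be]; simp only [mul_assoc, iv uu, iv (v2 F hb), uu, one_mul, mul_one, v2 F hb]
  rw [vb_conj F L hb bN m he, iv (v2 F hb), (vU F L (ncomm he bN) he).eq, iv eI.2] at k2
  rw [be]
  exact ⟨he, commutatorElement_eq_one_iff_commute.1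
    (one_of F (L.iv (ncomm he bN)) (by rw [k2]; exact Commute.one_left _))⟩

theorem main {b : G} (hb : Iv A b) (eb : ρ b = b0) {a : G} (ha : a ∈ U) :
    Commute (a * v a) (v b) := by
  have N : ∀ {x : G}, x ∈ A → x ∈ Ns A := fun hx => le_normalizer hx
  have bN : b ∈ Ns U := L.nrm b (N hb.1) (eb ▸ d.b00.2)
  obtain ⟨x, hx, ex⟩ := L.onto a1 d.a1V
  have kU := ncomm hx bN
  have kb := comm_b L hx hb bN
  have ek : ρ ⁅x, b⁆ = c := by rw [h.comm (N (L.le hx)) (N hb.1), ex, eb, d.cdef]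
  generalize hκ : ⁅x, b⁆ = κ at kU kb ek
  have kI := L.iv kU
  obtain ⟨η, hη, eη⟩ := h.surj θ d.θ0.1.1
  have ηN : η ∈ Ns U := L.nrm η (N hη) (eη ▸ d.θ0.1.2)
  have ηb : Commute η b := h.comm_of (N hη) hb.1 (p1 hb.2) (by rw [eη, eb]; exact mem_C1.1 d.θ0.2)
  have ηb' : η * b * η⁻¹ = b := by rw [ηb.eq, mul_inv_cancel_right]
  have b1' : b ≠ 1 := fun e => d.b0V (by rw [← eb, e, h.one]; exact one_mem _)
  have k1 : κ ≠ 1 := fun e => d.c1 (by rw [← ek, e, h.one])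
  have cj : ∀ e ∈ U, e ≠ 1 → Commute e b → ∃ g ∈ A, g * κ * g⁻¹ = e ∧ g * b * g⁻¹ = b :=
    fun e he e1 eb' => lift2 h kI hb (L.iv he) hb (by
      rw [ek, eb]
      exact d.tII _ ((L.mem e).1 he).2.1 (fun k => e1 (inj1 h (L.iv he) k))
        (eb ▸ h.commute (N (L.le he)) (N hb.1) eb'))
  have m0 : v κ * v b = v (κ * b) := by
    refine (lemM F h s kI hb kb k1 b1' (by rw [ek, eb]; exact d.good1)).resolve_right fun m => ?_
    have alt : ∀ e ∈ U, e ≠ 1 → Commute e b → v e * v b = t * b * v (e * b) := fun e he e1 eb' => by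
      obtain ⟨g, hg, g1, g2⟩ := cj e he e1 eb'
      have := alt_cj F s kI hb kb hg m
      rwa [g1, g2] at this
    have lU := mem_normalizer_conj ηN kU
    have lb : Commute (η * κ * η⁻¹) b := (ηb.mul_left kb).mul_left ηb.inv_left
    have el : ρ (η * κ * η⁻¹) = θ * c * θ⁻¹ := by rw [h.conj (N hη) (N kI.1), eη, ek]
    have l1 : η * κ * η⁻¹ ≠ 1 := fun e => k1 (conj_eq_one_iff.1 e)
    generalize η * κ * η⁻¹ = l at lU lb el l1
    have lI := L.iv lU
    obtain ⟨g, hg, g1, g2⟩ := lift2 h kI hb kI (lI.mul hb lb) (by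
      rw [h.mul _ (N lI.1) _ (N hb.1), ek, eb, el]; exact d.tII')
    have j1 := alt_cj F s kI hb kb hg m
    rw [g1, g2] at j1
    have j2 := alt _ (mul_mem kU lU) (fun e => d.θc (by
      rw [← el, ← ek, ← mul_one κ, ← e, iv kI.2])) (kb.mul_left lb)
    have j3 := alt l lU l1 lb
    have j4 : v κ * v l * v b = v κ * (v l * v b) := mul_assoc _ _ _
    rw [mulU F d h s L kU lU, j2, j3, mul_assoc t b (v (l * b)), vtl F kI,
      (vc F kI hb.1 kb.symm).left_comm, j1, ← mul_assoc κ l b] at j4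
    simp only [mul_assoc, mul_right_inj, (ta s kI.1).left_comm, (ta s hb.1).left_comm,
      kb.symm.left_comm, lb.symm.left_comm, iv hb.2] at j4
    simp only [← mul_assoc, mul_left_inj] at j4
    refine t_not s ?_
    rw [show t = b * (κ * l)⁻¹ by rw [eq_mul_inv_iff_mul_eq, ← mul_assoc, ← j4]]
    exact mul_mem hb.1 (inv_mem (mul_mem kI.1 lI.1))
  have m : ∀ e ∈ U, Commute e b → v e * v b = v (e * b) := fun e he eb' => by
    by_cases e1 : e = 1
    · rw [e1, F.one, one_mul, one_mul]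
    obtain ⟨g, hg, g1, g2⟩ := cj e he e1 eb'
    have := mul_cj F kI hb kb hg m0
    rwa [g1, g2] at this
  obtain ⟨n, hn, nN, en⟩ : ∃ n ∈ A, n ∈ Ns U ∧ ρ (n * b * n⁻¹) = b1 := by
    obtain ⟨γ, hγ, γN, e⟩ := d.nb1
    obtain ⟨n, hn, rfl⟩ := h.surj γ hγ
    exact ⟨n, hn, L.nrm n (N hn) γN, by rw [h.conj (N hn) (N hb.1), eb, e]⟩
  have wI := hb.conj hn
  have wN : n * b * n⁻¹ ∈ Ns U := mul_mem (mul_mem nN bN) (inv_mem nN)
  generalize hw : n * b * n⁻¹ = w at en wI wN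
  have wb : Commute w b := h.comm_of (N wI.1) hb.1 (p1 hb.2) (by rw [en, eb]; exact mem_C1.1 d.b10.2)
  have wx : Commute w x := h.comm_of (N wI.1) (L.le hx) (p1 (L.iv hx).2)
    (by rw [en, ex]; exact d.a1b1.symm)
  obtain ⟨n', hn', nN', en'⟩ : ∃ n ∈ A, n ∈ Ns U ∧ n * b * n⁻¹ = b * w := by
    obtain ⟨γ, hγ, γN, e⟩ := d.nb2
    obtain ⟨n, hn, rfl⟩ := h.surj γ hγ
    exact ⟨n, hn, L.nrm n (N hn) γN, h.conj_eq (N hn) hb.1 (mul_mem hb.1 wI.1) (p1 hb.2)
      (p1 (hb.mul wI wb.symm).2) (by rw [h.mul _ (N hb.1) _ (N wI.1), eb, en, e])⟩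
  have m1 : v b * v w = v (b * w) := by
    obtain ⟨g, hg, g1, g2⟩ := lift2 h kI hb hb wI (by rw [ek, eb, en]; exact d.mul01)
    have := mul_cj F kI hb kb hg m0
    rwa [g1, g2] at this
  let β : G → G → G := fun b a => v b * (a * v a) * v b * (a * v a)
  have bm := fun a ha => beta_mem F d h s L hb bN m (a := a) ha
  have βc : ∀ g ∈ A, ∀ a ∈ U, β (g * b * g⁻¹) (g * a * g⁻¹) = g * β b a * g⁻¹ := fun g hg a ha => by
    simp only [β, eq' F hb hg, eq' F (L.iv ha) hg, conj_mul]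
  have βm : ∀ a ∈ U, ∀ a' ∈ U, β b (a * a') = β b a * β b a' := fun a ha a' ha' => by
    have k1 : v b * (a' * v a') * v b = β b a' * (a' * v a') := by
      simp only [β]; rw [mul_assoc _ (a' * v a') (a' * v a'), u2 F L ha', mul_one]
    calc β b (a * a') = v b * (a * v a) * v b * (v b * (a' * v a') * v b) * (a * v a * (a' * v a')) := by
          simp only [β]; rw [umul F d h s L ha ha']
          generalize a * v a = u, a' * v a' = u'
          simp only [mul_assoc, iv (v2 F hb)]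
      _ = β b a * β b a' := by
          have c1 := uU F L ha (bm a' ha').1
          have c2 := (uU F L ha ha').mul_right (uv F d h s L ha ha')
          have c3 := u2 F L ha'
          rw [k1]
          change _ = v b * (a * v a) * v b * (a * v a) * β b a'
          change Commute _ (β b a') at c1
          generalize a * v a = u, a' * v a' = u', β b a' = y at c1 c2 c3
          simp only [mul_assoc, c2.symm.left_comm, c3, mul_one, c1.eq]
  have β1 : ∀ e ∈ U, Commute e b → β b e = 1 := fun e he eb' => by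
    have c1 := (vc F hb (L.le he) eb').mul_right (vb_comm F hb (L.iv he) eb' (m e he eb'))
    simp only [β]
    rw [c1.eq, mul_assoc _ (v b) (v b), v2 F hb, mul_one, u2 F L he]
  have span : ∀ f : G → G, (∀ a ∈ U, ∀ a' ∈ U, f (a * a') = f a * f a') →
      (∀ e ∈ U, Commute e b → f e = 1) → f (η * x * η⁻¹) = η * f x * η⁻¹ → β b x = f x →
      ∀ a ∈ U, β b a = f a := fun f f1 f2 f3 f4 a ha => by
    have yU := mem_normalizer_conj ηN hx
    have f5 : β b (η * x * η⁻¹) = f (η * x * η⁻¹) := by rw [f3, ← f4, ← βc η hη x hx, ηb']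
    have ey : ρ (η * x * η⁻¹) = θ * a1 * θ⁻¹ := by rw [h.conj (N hη) (N (L.le hx)), eη, ex]
    generalize η * x * η⁻¹ = y at yU f5 ey
    obtain ⟨δ, hδ, c1, c2⟩ := d.span _ ((L.mem a).1 ha).2.1
    obtain ⟨e, he, rfl⟩ := L.onto δ hδ
    have c3 : Commute e b := h.comm_of (N (L.le he)) hb.1 (p1 hb.2) (eb ▸ c1)
    have f6 : β b e = f e := by rw [β1 e he c3, f2 e he c3]
    have j : ∀ a' ∈ U, ρ a = ρ a' → a = a' := fun a' ha' => inj h (L.iv ha) (L.iv ha')
    have μ : ∀ p ∈ U, ∀ q ∈ U, ρ (p * q) = ρ p * ρ q := fun p hp q hq =>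
      h.mul _ (N (L.le hp)) _ (N (L.le hq))
    rcases c2 with c2 | c2 | c2 | c2
    · rw [j e he c2, f6]
    · rw [j _ (mul_mem he hx) (by rw [μ e he x hx, ex, c2]), βm e he x hx, f1 e he x hx, f6, f4]
    · rw [j _ (mul_mem he yU) (by rw [μ e he y yU, ey, c2]), βm e he y yU, f1 e he y yU, f6, f5]
    · rw [j _ (mul_mem (mul_mem he hx) yU) (by rw [μ _ (mul_mem he hx) y yU, μ e he x hx, ex, ey, c2]),
        βm _ (mul_mem he hx) y yU, f1 _ (mul_mem he hx) y yU, βm e he x hx, f1 e he x hx, f6, f4, f5]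
  have fx : β b x = 1 ∨ β b x = κ := by
    have c1 := βc w wI.1 x hx
    rw [wb.eq, mul_inv_cancel_right, wx.eq, mul_inv_cancel_right, eq_comm,
      mul_inv_eq_iff_eq_mul] at c1
    have yU := (bm x hx).1
    have yb := (bm x hx).2
    change β b x ∈ U at yU
    change Commute (β b x) b at yb
    generalize β b x = y at c1 yU yb
    refine (d.fix1 _ ((L.mem y).1 yU).2.1 (eb ▸ h.commute (N (L.le yU)) (N hb.1) yb)
      (en ▸ h.commute (N (L.le yU)) (N wI.1) c1.symm)).imp (inj1 h (L.iv yU)) fun e => ?_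
    exact inj h (L.iv yU) kI (e.trans ek.symm)
  rcases fx with fx | fx
  · have := span (fun _ => 1) (fun _ _ _ _ => (mul_one _).symm) (fun _ _ _ => rfl) (by simp) fx a ha
    have u1 := u2 F L ha
    simp only [β] at this
    generalize a * v a = u at this u1
    calc u * v b = v b * (v b * u * v b * u) * u := by
          simp only [mul_assoc, iv (v2 F hb), u1, mul_one]
      _ = _ := by rw [this, mul_one]
  exfalso
  have cm : ∀ q ∈ Ns U, ∀ a ∈ U, ∀ a' ∈ U, ⁅a * a', q⁆ = ⁅a, q⁆ * ⁅a', q⁆ := fun q hq a ha a' ha' => by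
    rw [show ⁅a * a', q⁆ = a * ⁅a', q⁆ * a⁻¹ * ⁅a, q⁆ by simp only [commutatorElement_def]; group,
      (L.comm ha (ncomm ha' hq)).eq, mul_inv_cancel_right, (L.comm (ncomm ha' hq) (ncomm ha hq)).eq]
  have cc : ∀ g p q : G, ⁅g * p * g⁻¹, g * q * g⁻¹⁆ = g * ⁅p, q⁆ * g⁻¹ := fun g p q => by
    simp only [commutatorElement_def]; group
  have all := span (fun a => ⁅a, b⁆) (cm b bN) (fun e _ k => k.commutator_eq)
    (by rw [← cc, ηb']) (fx.trans hκ.symm)
  have all' : ∀ g ∈ A, g ∈ Ns U → ∀ a ∈ U, β (g * b * g⁻¹) a = ⁅a, g * b * g⁻¹⁆ := fun g hg gN a ha => by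
    have := βc g hg _ (mem_normalizer_conj' gN ha)
    rw [all _ (mem_normalizer_conj' gN ha), ← cc] at this
    rwa [show g * (g⁻¹ * a * g) * g⁻¹ = a by group] at this
  obtain ⟨α, hα, nn⟩ := d.nn
  obtain ⟨y, hy, rfl⟩ := L.onto α hα
  have j0 := all y hy
  have j1 := all' n hn nN y hy
  have j2 := all' n' hn' nN' y hy
  rw [hw] at j1
  rw [en'] at j2
  have eU := ncomm hy wN
  have fU := ncomm eU bN
  have j3 := vb_conj F L hb bN m eU
  have j4 : v (b * w) = v w * v b := by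
    rw [← vi F (hb.mul wI wb.symm), ← m1, mul_inv_rev, vi F hb, vi F wI]
  have j5 : ⁅y, w⁆ * (v ⁅⁅y, w⁆, b⁆ * ⁅y, b⁆) = ⁅y, b * w⁆ := by
    rw [← j0, ← j2]
    simp only [β] at j1 ⊢
    nth_rewrite 2 [j4]
    rw [← m1]
    have u1 := u2 F L hy
    generalize y * v y = u at j1 u1
    simp only [mul_assoc]
    rw [← j3, ← j1]
    simp only [mul_assoc, iv u1]
  have j6 : v ⁅⁅y, w⁆, b⁆ ∈ A := by
    have := mul_mem (mul_mem (inv_mem eU) (j5 ▸ ncomm hy (mul_mem bN wN))) (inv_mem (ncomm hy bN))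
    rw [inv_mul_cancel_left, mul_inv_cancel_right] at this
    exact L.le this
  refine nn ?_
  rw [← en, ← eb, ← h.comm (N (L.le hy)) (N wI.1), ← h.comm (N (L.le eU)) (N hb.1),
    one_of F (L.iv fU) (ta s j6), h.one]

end DbA

open DbA

theorem Fam.rel {V : Subgroup Ω} {a0 a1 b0 b1 c θ : Ω} {I : Set Ω} {v : G → G} (F : Fam A O t v)
    (d : Db Γ Γ0 V z a0 a1 b0 b1 c θ I) (h : Mdl Γ Γ0 A ρ) (s : St A O t) {a b : G} (ha : a ∈ A)
    (hb : b ∈ A) (ha2 : a * a = 1) (hb2 : b * b = 1) (r : Rel Γ0 V b0 (ρ a) (ρ b)) :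
    Commute (a * v a) (v b) := by
  obtain ⟨U, h1, h2, h3, h4, h5⟩ := h.lift_E16 d.V0 d.e16
  have L : Lf Γ Γ0 V A ρ U := ⟨h1, h2, h3, h4, h5⟩
  obtain ⟨γ, hγ, r1, r2⟩ := r
  obtain ⟨g, hg, rfl⟩ := h.surj γ hγ
  have aI : Iv A a := ⟨ha, ha2⟩
  have bI : Iv A b := ⟨hb, hb2⟩
  rw [← h.conj (le_normalizer hg) (le_normalizer ha)] at r1
  rw [← h.conj (le_normalizer hg) (le_normalizer hb)] at r2
  have aU := (h3 _).2 ⟨(aI.conj hg).1, r1, (aI.conj hg).2⟩
  have k : Commute (g * a * g⁻¹ * v (g * a * g⁻¹)) (v (g * b * g⁻¹)) := r2.elim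
    (fun r2 => uv F d h s L aU ((h3 _).2 ⟨(bI.conj hg).1, r2, (bI.conj hg).2⟩))
    fun r2 => main F d h s L (bI.conj hg) r2 aU
  rw [eq' F aI hg, eq' F bI hg, conj_mul, Commute, SemiconjBy, conj_mul, conj_mul] at k
  exact mul_left_cancel (mul_right_cancel k)

end Cfsg.Lib.StdW
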