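import Cfsg.Agent.StdW.DbA
import Cfsg.Agent.StdW.Dg

/-!
# Standard subgroups with one class of involutions: `A` is a diagonal subgroup
-/

set_option autoImplicit false
set_option linter.unusedSectionVars false

namespace Cfsg.Lib.StdW

open Subgroup Cfsg.Lib.Gold Cfsg.Lib.Trans Cfsg.Lib.StdSz
open scoped commutatorElement

variable {G Ω : Type*} [Group G] [Group Ω] [Finite G] [Finite Ω] {Γ Γ0 T : Subgroup Ω} {z : Ω}
  {A O B : Subgroup G} {ρ ρ' : G → Ω} {t : G} {v : G → G}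

theorem Fam.tvt (F : Fam A O t v) (s : St A O t) {a : G} (ha : a ∈ A) (h2 : a * a = 1) :
    t * v a * t⁻¹ = a * v a := by
  have e := F.vt a ha h2
  have e2 := F.sq a ha h2
  rw [StdJ4.inv_of_sq s.tt]
  calc t * v a * t = t * v a * t * (v a * v a) := by rw [e2, mul_one]
    _ = t * (v a * t * v a) * v a := by group
    _ = t * t * a * v a := by rw [e]; group
    _ = a * v a := by rw [s.tt, one_mul]

theorem Fam.cva (F : Fam A O t v) {a : G} (ha : a ∈ A) (h2 : a * a = 1) : Commute (v a) a :=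
  mem_Cs.1 (F.cA a ha h2) a ⟨ha, mem_C1.2 (Commute.refl a)⟩

theorem Fam.dg_v (F : Fam A O t v) (s : St A O t) {a : G} (ha : a ∈ A) (h2 : a * a = 1) :
    dg t (v a) = a := by
  rw [dg_def, F.tvt s ha h2, ← mul_assoc, (F.cva ha h2).eq, mul_assoc, F.sq a ha h2, mul_one]

theorem Fam.uniq_v (F : Fam A O t v) (b : Base Γ Γ0 T z) (h : Mdl Γ Γ0 A ρ) (s : St A O t)
    {y a : G} (ha : a ∈ A) (a1 : a ≠ 1) (y2 : y * y = 1) (yt : y * t * y = t * a)
    (yc : y ∈ Cs (A ⊓ C1 a)) : a * a = 1 ∧ (y = v a ∨ y = a * v a) := by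
  have hta : Commute t a := mem_Cs.1 s.tA a ha
  have a2 : a * a = 1 := by
    have : t * a * (t * a) = 1 := by
      rw [← yt]
      calc y * t * y * (y * t * y) = y * t * (y * y) * t * y := by group
        _ = y * (t * t) * y := by rw [y2]; group
        _ = 1 := by rw [s.tt, mul_one, y2]
    rwa [← pow_two, hta.mul_pow, pow_two t, s.tt, one_mul, pow_two] at this
  refine ⟨a2, ?_⟩
  have v2 := F.sq a ha a2
  have vt := F.vt a ha a2
  have va := F.cva ha a2
  have vO : ∀ o ∈ O, Commute (v a) o := mem_Cs.1 (F.cO a ha a2)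
  have vA := F.cA a ha a2
  generalize v a = u at v2 vt va vO vA
  have ui := StdJ4.inv_of_sq v2
  have yi := StdJ4.inv_of_sq y2
  have gt : u * y ∈ C1 t := by
    rw [mem_C1]
    have : u * y * t * (u * y)⁻¹ = t := by
      rw [mul_inv_rev, ui, yi]
      calc u * y * t * (y * u) = u * (y * t * y) * u := by group
        _ = u * t * (a * u) := by rw [yt]; group
        _ = u * t * u * a := by rw [← va.eq]; group
        _ = t * (a * a) := by rw [vt]; group
        _ = t := by rw [a2, mul_one]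
    show u * y * t = t * (u * y)
    calc u * y * t = u * y * t * (u * y)⁻¹ * (u * y) := by group
      _ = t * (u * y) := by rw [this]
  have gN := s.cN gt
  have aN := le_normalizer ha
  have ρ2 : ρ a * ρ a = 1 := by rw [← h.mul a aN a aN, a2, h.one]
  have ρ1 : ρ a ≠ 1 := fun e =>
    a1 (h.eq_one ha (k := 1) (by rw [pow_one, pow_two, a2]) ((h.ker a aN).1 e))
  have gc : ρ (u * y) ∈ Cs (Γ0 ⊓ C1 (ρ a)) := by
    refine mem_Cs.2 fun γ hγ => ?_
    obtain ⟨x, hx, rfl⟩ := h.surj γ hγ.1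
    have hxa : Commute x a := h.comm_of (le_normalizer hx) ha (k := 1)
      (by rw [pow_one, pow_two, a2]) (mem_C1.1 hγ.2)
    exact h.commute gN (le_normalizer hx) (mem_Cs.1 (mul_mem vA yc) x ⟨hx, mem_C1.2 hxa⟩)
  have ginv : u * (u * y) * u = (u * y)⁻¹ := by
    rw [mul_inv_rev, ui, yi, ← mul_assoc, v2, one_mul]
  -- the four possibilities
  have odd : ∀ o ∈ O, Odd (orderOf o) := fun o ho => odd_orderOf s.Oodd ho
  have oa : ∀ o ∈ O, Commute o a := fun o ho => mem_Cs.1 (s.Ole ho).1 a ha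
  have ot : ∀ o ∈ O, Commute o t := fun o ho => mem_C1.1 (s.Ole ho).2
  have aO : a ∉ O := fun e => a1 (eq_one_of_odd_sq (odd a e) a2)
  have fix : ∀ c, Commute u c → u * y = c → c * c = 1 := by
    intro c hc e
    rw [e, hc.eq, mul_assoc, v2, mul_one] at ginv
    exact mul_eq_one_iff_eq_inv.2 ginv
  have mov : ∀ c, Commute u c → Commute c t → u * y = t * c → a * c * c = 1 := by
    intro c hc hct e
    rw [e] at ginv
    have : t * a * c = (t * c)⁻¹ := by
      rw [← ginv, ← vt]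
      calc u * t * u * c = u * t * (u * c) := by group
        _ = u * (t * c) * u := by rw [hc.eq]; group
    rw [mul_inv_rev, StdJ4.inv_of_sq s.tt, hct.inv_left.eq, mul_assoc, mul_right_inj] at this
    rw [this, inv_mul_cancel]
  rcases b.cent_cent (h.mem a ha) ρ2 ρ1 (h.memΓ _ gN) gc with e | e
  · rcases s.dec _ ⟨(h.ker _ gN).1 e, gt⟩ with ho | ⟨o, ho, e2⟩
    · left
      have := eq_one_of_odd_sq (odd _ ho) (fix _ (vO _ ho) rfl)
      rw [← ui]
      exact eq_inv_of_mul_eq_one_right this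
    · have := mov o (vO o ho) (ot o ho) e2
      rw [mul_assoc] at this
      exact absurd (by rw [eq_inv_of_mul_eq_one_left this]; exact O.inv_mem (O.mul_mem ho ho)) aO
  · have e1 : ρ (a⁻¹ * (u * y)) = 1 := by
      rw [h.mul _ (inv_mem aN) _ gN, h.inv aN, e, inv_mul_cancel]
    rcases s.dec _ ⟨(h.ker _ (mul_mem (inv_mem aN) gN)).1 e1,
      (C1 t).mul_mem ((C1 t).inv_mem (mem_C1.2 hta.symm)) gt⟩ with ho | ⟨o, ho, e2⟩
    · right
      have e3 : u * y = a * (a⁻¹ * (u * y)) := by group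
      generalize a⁻¹ * (u * y) = o at ho e3
      have := fix _ (va.mul_right (vO o ho)) e3
      rw [← pow_two, (oa o ho).symm.mul_pow, pow_two a, a2, one_mul, pow_two] at this
      rw [eq_one_of_odd_sq (odd o ho) this, mul_one] at e3
      rw [← va.eq, ← e3, ← mul_assoc, v2, one_mul]
    · have e3 : u * y = t * (a * o) := by
        rw [← mul_assoc, hta.eq, mul_assoc, ← e2]; group
      have := mov _ (va.mul_right (vO o ho)) (hta.symm.mul_left (ot o ho)) e3
      have e4 : a * (o * o) = 1 := by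
        rw [← this]
        calc a * (o * o) = a * o * o := by group
          _ = o * a * o := by rw [(oa o ho).eq]
          _ = a * a * (o * a * o) := by rw [a2, one_mul]
          _ = a * (a * o) * (a * o) := by group
      exact absurd (by rw [eq_inv_of_mul_eq_one_left e4]; exact O.inv_mem (O.mul_mem ho ho)) aO

/-- StdW/DbB.lean -/
theorem Fam.dbl {v : G → G} (F : Fam A O t v) (b : Base Γ Γ0 T z) (h : Mdl Γ Γ0 A ρ) (s : St A O t)
    {I : Set Ω} (I0 : ∀ a ∈ I, a ∈ Γ0 ∧ a * a = 1 ∧ a ≠ 1) (genI : Γ0 ≤ closure I)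
    (r : ∀ a ∈ A, ∀ b ∈ A, a * a = 1 → b * b = 1 → ρ a ∈ I → ρ b ∈ I → Commute (a * v a) (v b)) :
    ∃ B ρ', Mdl Γ Γ0 B ρ' ∧ Dbl A O B t := by
  obtain ⟨S, hS⟩ : ∃ S : Set G, S = v '' {a | a ∈ A ∧ a * a = 1 ∧ ρ a ∈ I} := ⟨_, rfl⟩
  have memS : ∀ a ∈ A, a * a = 1 → ρ a ∈ I → v a ∈ closure S := fun a ha a2 hI =>
    subset_closure (hS ▸ ⟨a, ⟨ha, a2, hI⟩, rfl⟩)
  have gen : ∀ J : Subgroup G, (∀ a ∈ A, a * a = 1 → ρ a ∈ I → v a ∈ J) → closure S ≤ J := by
    intro J hJ
    rw [closure_le, hS]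
    rintro _ ⟨a, ⟨ha, a2, hI⟩, rfl⟩
    exact hJ a ha a2 hI
  generalize closure S = B at memS gen
  have comm : B ≤ Cs (cj t B) := by
    refine gen _ fun a ha a2 hI => mem_Cs.2 fun x hx => ?_
    have : B ≤ cj t⁻¹ (C1 (v a)) := gen _ fun c hc c2 cI => by
      rw [mem_cj_inv, F.tvt s hc c2]
      exact mem_C1.2 (r c hc a ha c2 a2 cI hI)
    have e := mem_cj_inv.1 (this (mem_cj.1 hx))
    have e2 : t * (t⁻¹ * x * t) * t⁻¹ = x := by group
    rw [e2] at e
    exact (mem_C1.1 e).symm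
  have w : Sw B t := ⟨s.tt, comm⟩
  have diag : ∀ x ∈ B, dg t x ∈ A := fun x hx =>
    (w.mem_pre.1 (gen (w.pre A) (fun a ha a2 hI =>
      w.mem_pre.2 ⟨memS a ha a2 hI, by rw [F.dg_v s ha a2]; exact ha⟩) hx)).2
  have onto : A ≤ w.hom.range := by
    refine h.le_of_surj fun γ hγ => ?_
    have : closure I ≤ h.img w.hom.range := by
      rw [closure_le]
      intro i hi
      obtain ⟨a, ha, a2, e⟩ := h.lift_inv (I0 i hi).1 (I0 i hi).2.1
      exact h.mem_img.2 ⟨a, w.mem_range.2 ⟨v a, memS a ha a2 (e ▸ hi), F.dg_v s ha a2⟩,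
        le_normalizer ha, e⟩
    obtain ⟨x, hx, -, e⟩ := h.mem_img.1 (this (genI hγ))
    obtain ⟨y, hy, rfl⟩ := w.mem_range.1 hx
    exact ⟨_, diag y hy, hx, e⟩
  have hAB : A ≤ Ns B := by
    intro a ha
    obtain ⟨x, hx, rfl⟩ := w.mem_range.1 (onto ha)
    exact w.memN hx
  obtain ⟨a0, ha0, a02, a01, a0B⟩ : ∃ a ∈ A, a * a = 1 ∧ a ≠ 1 ∧ v a ∈ B := by
    by_contra hne
    have : I = ∅ := by
      rw [Set.eq_empty_iff_forall_notMem]
      intro i hi
      obtain ⟨a, ha, a2, e⟩ := h.lift_inv (I0 i hi).1 (I0 i hi).2.1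
      refine hne ⟨a, ha, a2, ?_, memS a ha a2 (e ▸ hi)⟩
      rintro rfl
      exact (I0 i hi).2.2 (by rw [← e, h.one])
    rw [this, Subgroup.closure_empty] at genI
    exact b.z1 (mem_bot.1 (genI (b.T0 b.zT)))
  have allB : ∀ a ∈ A, a * a = 1 → a ≠ 1 → v a ∈ B := by
    intro a ha a2 a1
    obtain ⟨g, hg, rfl⟩ := h.cls b ha0 ha a02 a2 a01 a1
    rw [F.eqv a0 ha0 a02 g hg]
    exact mem_normalizer_conj (hAB hg) a0B
  have hN : ∀ x ∈ B, dg t x ∈ Ns A := fun x hx => le_normalizer (diag x hx)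
  let φ : B →* Ω := h.hom.comp (w.hom.codRestrict (Ns A) fun x => hN x x.2)
  have hφ : ∀ x : B, φ x = ρ (dg t x) := fun _ => rfl
  have cen : ∀ x ∈ B, dg t x ∈ Cs A → x ∈ Cs B := by
    intro x hx hc
    have : B ≤ C1 x := gen _ fun a ha a2 hI => by
      have e := F.eqv a ha a2 _ (diag x hx)
      rw [conj_eq_of_mem_centralizer hc ha, w.act hx (memS a ha a2 hI)] at e
      rw [mem_C1]
      show v a * x = x * v a
      calc v a * x = x * v a * x⁻¹ * x := by rw [← e]
        _ = x * v a := by group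
    exact mem_Cs.2 fun y hy => (mem_C1.1 (this hy)).symm
  have kerC : ∀ x : B, x ∈ φ.ker → dg t x ∈ Cs A := fun x hx => (h.ker _ (hN x x.2)).1 hx
  have hodd : Odd (Nat.card φ.ker) := by
    rw [← Nat.not_even_iff_odd, even_iff_two_dvd]
    intro hd
    have : Fact (Nat.Prime 2) := ⟨Nat.prime_two⟩
    obtain ⟨j, hj⟩ := exists_prime_orderOf_dvd_card' 2 hd
    have hj' : orderOf ((j : B) : G) = 2 := by rw [orderOf_coe, orderOf_coe, hj]
    have hjk := kerC _ j.2
    have hjB : ((j : B) : G) ∈ B := (j : B).2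
    generalize ((j : B) : G) = x at hj' hjk hjB
    have x2 : x * x = 1 := by rw [← pow_two, ← hj', pow_orderOf_eq_one]
    have e := h.eq_one (diag x hjB) (k := 1) (by rw [pow_one, pow_two, w.sq hjB x2]) hjk
    have xB := w.cent hjB e
    have xt : x ∈ C1 t := by
      have e2 := w.ytyt hjB
      rw [e, mul_one] at e2
      rw [mem_C1]
      show x * t = t * x
      calc x * t = x * t * (x * x) := by rw [x2, mul_one]
        _ = t * x := by rw [← mul_assoc, e2]
    have xA : x ∈ Cs A := by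
      refine mem_Cs.2 fun a ha => ?_
      obtain ⟨y, hy, rfl⟩ := w.mem_range.1 (onto ha)
      exact (mem_Cs.1 xB y hy).mul_right (w.commute hjB hy)
    rcases s.two_elt xA xt (k := 1) (by rw [pow_one, pow_two, x2]) with rfl | rfl
    · simp at hj'
    · have e2 := F.tvt s ha0 a02
      rw [(mem_Cs.1 xB _ a0B).eq, mul_inv_cancel_right] at e2
      exact a01 (by simpa using e2)
  have hp : B ≤ ⁅B, B⁆ := by
    refine gen _ fun a ha a2 hI => ?_
    have hv := memS a ha a2 hI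
    have h1 : a ∈ (⁅(⊤ : Subgroup B), (⊤ : Subgroup B)⁆ : Subgroup B).map w.hom := by
      rw [map_commutator, ← MonoidHom.range_eq_map]
      exact commutator_mono onto onto (h.perf ha)
    obtain ⟨d, hd, e⟩ := h1
    have e' : dg t d = a := e
    have hd' : (d : G) ∈ ⁅B, B⁆ := by
      have : (d : G) ∈ (⁅(⊤ : Subgroup B), (⊤ : Subgroup B)⁆ : Subgroup B).map B.subtype := ⟨d, hd, rfl⟩
      rwa [map_commutator, ← MonoidHom.range_eq_map, range_subtype] at this
    have hk : (d : G)⁻¹ * v a ∈ B := B.mul_mem (B.inv_mem d.2) hv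
    have e1 : dg t ((d : G)⁻¹ * v a) = 1 := by
      rw [w.mul (B.inv_mem d.2) hv, w.inv d.2, e', F.dg_v s ha a2, inv_mul_cancel]
    have hk2 : (⟨_, hk⟩ : B) ∈ φ.ker := by
      rw [MonoidHom.mem_ker, hφ, e1, h.one]
    have ho : Odd (orderOf ((d : G)⁻¹ * v a)) := by
      have := odd_orderOf hodd hk2
      rwa [← orderOf_coe] at this
    have hc : Commute (d : G) ((d : G)⁻¹ * v a) := (mem_Cs.1 (w.cent hk e1) d d.2).symm
    obtain ⟨n, hn⟩ := ho
    have e2 : v a = (d : G) ^ orderOf ((d : G)⁻¹ * v a) := by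
      have e3 := hc.mul_pow (orderOf ((d : G)⁻¹ * v a))
      rw [pow_orderOf_eq_one, mul_one, mul_inv_cancel_left] at e3
      rw [← e3, hn, pow_succ, pow_mul, pow_two, F.sq a ha a2, one_pow, one_mul]
    rw [e2]
    exact pow_mem hd' _
  obtain ⟨ρ', m⟩ := exists_mdl b φ (by
      ext γ
      constructor
      · rintro ⟨x, rfl⟩
        exact h.mem _ (diag x x.2)
      · intro hγ
        obtain ⟨a, ha, rfl⟩ := h.surj γ hγ
        obtain ⟨x, hx, rfl⟩ := w.mem_range.1 (onto ha)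
        exact ⟨⟨x, hx⟩, rfl⟩) hp (fun x hx => mem_center_iff.2 fun y =>
      Subtype.ext (mem_Cs.1 (cen x x.2 (kerC x hx)) y y.2).symm.eq) hodd
  refine ⟨B, ρ', m, comm, diag, fun a ha => ?_, gen _ fun a ha a2 _ => F.cO a ha a2, ?_⟩
  · obtain ⟨x, hx, e⟩ := w.mem_range.1 (onto ha)
    exact ⟨x, hx, e.symm⟩
  · intro y a ha a1 y2 yt yc
    obtain ⟨a2, e | e⟩ := F.uniq_v b h s ha a1 y2 yt yc
    · exact Or.inl (e ▸ allB a ha a2 a1)
    · right
      rw [e, ← F.tvt s ha a2]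
      exact conj_mem_cj.2 (allB a ha a2 a1)

end Cfsg.Lib.StdW
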