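import Cfsg.Agent.StdW.M23D
import Cfsg.Agent.StdW.OfFm
import Cfsg.Agent.Spor.M24PK
import Cfsg.Agent.Known.MathieuOut

/-! The facts on the model `M₂₃`. -/

set_option autoImplicit false

namespace Cfsg.Lib.StdW

open Subgroup Cfsg.Lib.Spor Cfsg.Lib.Spor.Bulk Cfsg.Lib.Spor.PK Cfsg.Lib.Spor.WF Cfsg.Lib.Spor.MP

theorem Q23_map {t l : ℕ} (h : MP.isPerm t = true) (e : toPK t = nth (one 9 24) Q23.cs l) :
    ptEquiv.permCongrHom (toPerm t) = Q23.m l := by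
  have a := (rep_toPerm h).den
  refine Den.unique (PM.ctx Q23_ok) ⟨a.1, fun i hi => ?_⟩ (e ▸ PM.den Q23_ok l)
  obtain ⟨j, hj, e1, e2⟩ := a.2 i hi
  refine ⟨j, hj, e1, Fin.ext ?_⟩
  change ptIdx (toPerm t • idxPt (i % 24)) = j % 24
  rw [Nat.mod_eq_of_lt hi, Nat.mod_eq_of_lt hj, e2, ptIdx_idxPt hj]

theorem Q23_eq : Spor.M23.map ptEquiv.permCongrHom.toMonoidHom = sub Q23.m W7 := by
  have h : ∀ t ∈ gens23, MP.isPerm t = true := by decide +kernel
  have e1 := Q23_map (l := 1) (h _ List.mem_cons_self) (by decide +kernel)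
  have e2 := Q23_map (l := 2) (h _ (List.mem_cons_of_mem _ List.mem_cons_self)) (by decide +kernel)
  have e3 : ∀ l ∈ [3, 4, 5, 6, 7], Q23.m l = 1 := fun l hl =>
    (PM.den Q23_ok l).unique (PM.ctx Q23_ok) (by
      rw [(by decide +kernel : ∀ l ∈ [3, 4, 5, 6, 7], nth (one 9 24) Q23.cs l = one 9 24) l hl]
      exact den_one (PM.ctx Q23_ok))
  rw [← pclosure_gens23]
  refine le_antisymm (map_le_iff_le_comap.2 (pclosure_le.2 fun t ht => ?_)) (sub_le fun L hL => ?_)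
  · simp only [gens23, List.mem_cons, List.not_mem_nil, or_false] at ht
    rcases ht with rfl | rfl
    · simpa [← e1] using wv_mem_sub Q23.m (W := W7) (L := [1]) (by decide)
    · simpa [← e2] using wv_mem_sub Q23.m (W := W7) (L := [2]) (by decide)
  · simp only [W7, List.mem_cons, List.not_mem_nil, or_false] at hL
    rcases hL with rfl | rfl | hL
    · exact ⟨_, subset_closure ⟨_, List.mem_cons_self, rfl⟩, by simpa using e1⟩
    · exact ⟨_, subset_closure ⟨_, List.mem_cons_of_mem _ List.mem_cons_self, rfl⟩, by simpa using e2⟩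
    · rcases hL with rfl | rfl | rfl | rfl | rfl <;> simp [e3]

theorem mod_M23 : ∃ (Ω : Type) (_ : Group Ω) (_ : Finite Ω) (Γ Γ0 : Subgroup Ω),
    Mod Γ Γ0 ∧ Cfsg.Spor.IsoM23 ↥Γ0 := by
  have e : Spor.M23 ≃* sub Q23.m W7 :=
    (ptEquiv.permCongrHom.subgroupMap _).trans (MulEquiv.subgroupCongr Q23_eq)
  refine ⟨_, _, inferInstance, _, _, (hyp_of (ns := 1) (a8 := []) Q23_ok Q23_subs rfl (by decide)
    ((Nat.card_congr e.toEquiv).symm.trans card_M23) e.symm.isSimpleGroup ?_ (by decide +kernel)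
    Q23_b0 Q23_b1 Q23_b2 Q23_b3 Q23_b4 Q23_b5 Q23_b6 Q23_b7 Q23_d1 Q23_d2 Q23_d3 Q23_d4 Q23_d5
    (Or.inr Q23_d6) Q23_d7 Q23_d8 (Or.inl ⟨Q23_d9, rfl⟩) Q23_d10 Q23_d11 (L0 := Q23_L0) (L1 := Q23_L1)
    (by decide +kernel) (by decide +kernel) (by decide +kernel)).mod, ⟨e.symm⟩⟩
  rw [← card_aut_congr e]
  exact card_aut_le.trans (by rw [Known.card_out_m23, card_M23])

end Cfsg.Lib.StdW
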