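import Cfsg.Agent.StdW.McLa
import Cfsg.Agent.StdW.McLb
import Cfsg.Agent.StdW.McLc
import Cfsg.Agent.StdW.OfFm
import Cfsg.Agent.LyT.McL
import Cfsg.Agent.Spor.Co0OutA

/-! The facts on the model `McL:2`. -/

set_option autoImplicit false

namespace Cfsg.Lib.StdW

open Subgroup Cfsg.Lib.Spor Cfsg.Lib.Spor.Bulk Cfsg.Lib.Spor.PK Cfsg.Lib.Spor.WF Cfsg.Lib.LyT

theorem QM_m (l : ℕ) (hl : l < 8) : P7.m l = QM.m l := by
  have key : allN 8 (fun l => forc (nth (one 12 275) P7.cs l) fun c => forc (nth (one 13 275) QM.cs l)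
      fun d => allN 275 fun i => Nat.beq (13 * fld 12 c i) (12 * fld 13 d i)) = true := by
    decide +kernel
  simp only [allN_iff, forc_eq, Nat.beq_eq] at key
  refine Equiv.ext fun x => ?_
  obtain ⟨j, hj, e1, e2⟩ := (PM.den P7_ok l).2 x x.2
  obtain ⟨k, hk, e3, e4⟩ := (PM.den QM_ok l).2 x x.2
  have := key l hl x x.2
  rw [e1, e3] at this
  obtain rfl : j = k := by simp only at this; omega
  rw [Fin.ofNat_val_eq_self] at e2 e4
  exact e2.trans e4.symm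

theorem QM_eq : sub P7.m L7 = sub QM.m W7 := by
  exact congrArg gen (List.map_congr_left fun L hL => wv_congr fun l hl =>
    QM_m l ((by decide : ∀ L ∈ L7, ∀ l ∈ L, l < 8) L hL l hl))

theorem mod_McL : ∃ (Ω : Type) (_ : Group Ω) (_ : Finite Ω) (Γ Γ0 : Subgroup Ω),
    Mod Γ Γ0 ∧ Cfsg.Spor.IsoMcL ↥Γ0 := by
  obtain ⟨e0⟩ := P7_equiv
  have e : Spor.McL ≃* sub QM.m W7 := (CK.sMcLEquiv.symm.trans e0).trans (MulEquiv.subgroupCongr QM_eq)
  have h0 : Nat.card (sub QM.m W7) = 898128000 := QM_eq ▸ P7_card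
  have h1 := card_W8 QM_ok QM_subs h0 QM_b0 QM_d0
  have d : ∀ {p : Fm}, QM.decB QM_B p = true → QM.dec p = true :=
    dec_of_fast QM_ok QM_subs (by decide) h0 QM_b0 QM_d0 QM_b9 (by decide)
  refine ⟨_, _, inferInstance, _, _, (hyp_of QM_ok QM_subs rfl (by decide) h0 (QM_eq ▸ P7_simple) ?_
    (by decide +kernel) QM_b0 (cenC_of_fast QM_ok h1 QM_b1) (cenC_of_fast QM_ok h1 QM_b2)
    (cenC_of_fast QM_ok h1 QM_b3) (cenC_of_fast QM_ok h0.le QM_b4) QM_b5 QM_b6 QM_b7 (d QM_d1)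
    (d QM_d2) (d QM_d3) (d QM_d4) (d QM_d5) (Or.inl (d QM_d6)) (d QM_d7) (d QM_d8)
    (Or.inr ⟨d QM_d9a, d QM_d9b, cenC_of_fast QM_ok h1 QM_b8, rfl⟩) (d QM_d10) (d QM_d11)
    (by decide +kernel) (by decide +kernel) (by decide +kernel)).mod, ⟨e.symm⟩⟩
  have : Finite Spor.McL := Finite.of_equiv _ e.symm.toEquiv
  rw [← card_aut_congr e]
  exact card_aut_le.trans (by rw [CK.card_out_McL, Nat.card_congr e.toEquiv, h0])

end Cfsg.Lib.StdW
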